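import Mathlib
import Cfsg.Agent.Lib.Helper70.OPar.Defs

/-!
# Project OPAR (S5989), package [EMB]

A nondegenerate subspace embeds isometrically in every nondegenerate subspace of larger dimension.
Also: the orthogonal sum of two isometries (`isometric_sup`).
-/

set_option autoImplicit false

namespace Cfsg.Agent.Lib.Helper25.OPar

open Cfsg.Agent.Lib.Helper23.OHyp Cfsg.Agent.Lib.Helper70.OPar
open scoped Matrix

universe u

section general

variable {F : Type u} [Field F] {ι : Type} [Fintype ι] [DecidableEq ι]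

/-- `A × B ≃ A ⊔ B` for disjoint subspaces. -/
noncomputable def supEquiv (A B : Submodule F (ι → F)) (h : Disjoint A B) :
    (A × B) ≃ₗ[F] ↥(A ⊔ B) :=
  (LinearEquiv.ofInjective (A.subtype.coprod B.subtype) (by
      rw [← LinearMap.ker_eq_bot, LinearMap.ker_coprod_of_disjoint_range]
      · simp
      · simpa using h)).trans
    (LinearEquiv.ofEq _ _ (by rw [LinearMap.range_coprod]; simp))

theorem supEquiv_coe (A B : Submodule F (ι → F)) (h : Disjoint A B) (p : A × B) :
    ((supEquiv A B h p : ↥(A ⊔ B)) : ι → F) = (p.1 : ι → F) + (p.2 : ι → F) := by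
  simp [supEquiv]

/-- the orthogonal sum of two isometries. -/
theorem isometric_sup (Q : (ι → F) → F) {A B A' B' : Submodule F (ι → F)}
    (hAB : Perp Q A B) (hAB' : Perp Q A' B') (hd : Disjoint A B) (hd' : Disjoint A' B')
    (hA : Cfsg.Geo.AreIsometricFor Q A A') (hB : Cfsg.Geo.AreIsometricFor Q B B') :
    Cfsg.Geo.AreIsometricFor Q (A ⊔ B) (A' ⊔ B') := by
  obtain ⟨eA, hA⟩ := hA
  obtain ⟨eB, hB⟩ := hB
  refine ⟨(supEquiv A B hd).symm.trans ((eA.prodCongr eB).trans (supEquiv A' B' hd')), ?_⟩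
  intro w
  have hw : (w : ι → F) = (((supEquiv A B hd).symm w).1 : ι → F) +
      (((supEquiv A B hd).symm w).2 : ι → F) := by
    rw [← supEquiv_coe A B hd, LinearEquiv.apply_symm_apply]
  have he : ((((supEquiv A B hd).symm.trans ((eA.prodCongr eB).trans (supEquiv A' B' hd'))) w :
      ↥(A' ⊔ B')) : ι → F) = (eA ((supEquiv A B hd).symm w).1 : ι → F) +
        (eB ((supEquiv A B hd).symm w).2 : ι → F) := by
    rw [LinearEquiv.trans_apply, LinearEquiv.trans_apply, supEquiv_coe]
    rfl
  have key : ∀ u v : ι → F, Q (u + v) = Q u + Q v + QuadraticMap.polar Q u v := by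
    intro u v
    unfold QuadraticMap.polar
    ring
  rw [he]
  conv_rhs => rw [hw]
  rw [key, key, hAB' _ (eA _).2 _ (eB _).2, hAB _ ((supEquiv A B hd).symm w).1.2 _
    ((supEquiv A B hd).symm w).2.2, hA, hB]

theorem disjoint_of_perp (Q : (ι → F) → F) {A B : Submodule F (ι → F)} (hNd : Nd Q A)
    (hperp : Perp Q A B) : Disjoint A B := by
  rw [Submodule.disjoint_def]
  intro v hvA hvB
  by_contra hv
  obtain ⟨⟨x, hx, hxv⟩, _⟩ := hNd v hvA hv
  exact hxv (hperp x hx v hvB)

/-- the orthogonal sum of nondegenerate subspaces is nondegenerate. -/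
theorem nd_sup (Q : (ι → F) → F) (hQ : Cfsg.Geo.IsNondegenerateQuadraticForm Q)
    {A B : Submodule F (ι → F)} (hA : Nd Q A) (hB : Nd Q B) (hperp : Perp Q A B) :
    Nd Q (A ⊔ B) := by
  have hbil := hQ.polar_bilinear
  have hpc : ∀ a b : ι → F, QuadraticMap.polar Q a b = QuadraticMap.polar Q b a :=
    QuadraticMap.polar_comm Q
  intro w hw hw0
  obtain ⟨a, ha, b, hb, rfl⟩ := Submodule.mem_sup.mp hw
  by_cases ha0 : a = 0
  · have hb0 : b ≠ 0 := by
      intro h
      apply hw0
      rw [ha0, h, add_zero]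
    obtain ⟨⟨x, hx, hxb⟩, _⟩ := hB b hb hb0
    have h1 : QuadraticMap.polar Q x (a + b) ≠ 0 := by
      rw [hbil.add_right, hpc x a, hperp a ha x hx, zero_add]
      exact hxb
    refine ⟨⟨x, Submodule.mem_sup_right hx, h1⟩, ⟨x, Submodule.mem_sup_right hx, ?_⟩⟩
    rw [hpc]
    exact h1
  · obtain ⟨⟨x, hx, hxa⟩, _⟩ := hA a ha ha0
    have h1 : QuadraticMap.polar Q x (a + b) ≠ 0 := by
      rw [hbil.add_right, hperp x hx b hb, add_zero]
      exact hxa
    refine ⟨⟨x, Submodule.mem_sup_left hx, h1⟩, ⟨x, Submodule.mem_sup_left hx, ?_⟩⟩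
    rw [hpc]
    exact h1

theorem polar_self (Q : (ι → F) → F) (hQ : Cfsg.Geo.IsNondegenerateQuadraticForm Q)
    (w : ι → F) : QuadraticMap.polar Q w w = 2 * Q w := by
  unfold QuadraticMap.polar
  have h : w + w = (2 : F) • w := by rw [two_smul]
  rw [h, hQ.smul]
  ring

/-- a line spanned by a nonsingular vector is nondegenerate. -/
theorem nd_span (Q : (ι → F) → F) (hQ : Cfsg.Geo.IsNondegenerateQuadraticForm Q) (h2 : (2 : F) ≠ 0)
    {w : ι → F} (hw : Q w ≠ 0) : Nd Q (Submodule.span F {w}) := by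
  have hbil := hQ.polar_bilinear
  intro v hv hv0
  obtain ⟨c, rfl⟩ := Submodule.mem_span_singleton.mp hv
  have hc : c ≠ 0 := by
    intro h
    apply hv0
    rw [h, zero_smul]
  have hne : c * (2 * Q w) ≠ 0 := mul_ne_zero hc (mul_ne_zero h2 hw)
  refine ⟨⟨w, Submodule.mem_span_singleton_self w, ?_⟩, ⟨w, Submodule.mem_span_singleton_self w, ?_⟩⟩
  · rw [hbil.smul_right, polar_self Q hQ]
    exact hne
  · rw [hbil.smul_left, polar_self Q hQ]
    exact hne

/-- lines spanned by vectors with the same nonzero value of `Q` are isometric. -/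
theorem isometric_span (Q : (ι → F) → F) (hQ : Cfsg.Geo.IsNondegenerateQuadraticForm Q)
    {u w : ι → F} (hu : u ≠ 0) (hw : w ≠ 0) (huw : Q u = Q w) :
    Cfsg.Geo.AreIsometricFor Q (Submodule.span F {u}) (Submodule.span F {w}) := by
  refine ⟨(LinearEquiv.toSpanNonzeroSingleton F (ι → F) u hu).symm.trans
    (LinearEquiv.toSpanNonzeroSingleton F (ι → F) w hw), ?_⟩
  intro x
  have hx : ((LinearEquiv.toSpanNonzeroSingleton F (ι → F) u hu).symm x) • u = (x : ι → F) :=
    LinearEquiv.toSpanNonzeroSingleton_symm_apply_smul F (ι → F) u hu x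
  rw [LinearEquiv.trans_apply, LinearEquiv.toSpanNonzeroSingleton_apply]
  simp only
  rw [← hx, hQ.smul, hQ.smul, huw]

theorem inv_one (W : Submodule F (ι → F)) : Inv (1 : Matrix ι ι F) W := by
  unfold Cfsg.Agent.Lib.Helper23.OHyp.Inv
  rw [Matrix.toLin'_one]
  simp

end general

theorem pkgEmb_of (hU : PkgUniv.{u}) (hP : PkgPerp.{u}) : PkgEmb.{u} := by
  intro F _ _ ι _ _ Q hQ h2
  have hQ0 : Q 0 = 0 := by
    have := hQ.smul 0 0
    simpa using this
  have main : ∀ k : ℕ, ∀ U W : Submodule F (ι → F), Nd Q U → Nd Q W → Module.finrank F W = k →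
      k + 1 ≤ Module.finrank F U →
      ∃ W' : Submodule F (ι → F), W' ≤ U ∧ Nd Q W' ∧ Cfsg.Geo.AreIsometricFor Q W' W := by
    intro k
    induction k with
    | zero =>
      intro U W hUn hWn hk hle
      have hW : W = ⊥ := Submodule.finrank_eq_zero.mp hk
      subst hW
      refine ⟨⊥, bot_le, ?_, ⟨LinearEquiv.refl F _, fun w => rfl⟩⟩
      intro w hw hw0
      exact absurd ((Submodule.mem_bot F).mp hw) hw0
    | succ k ih =>
      intro U W hUn hWn hk hle
      obtain ⟨w, hwW, hQw⟩ : ∃ w ∈ W, Q w ≠ 0 := by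
        by_contra hcon
        push Not at hcon
        have hWne : W ≠ ⊥ := by
          intro h
          rw [h, finrank_bot] at hk
          omega
        obtain ⟨v, hv, hv0⟩ := Submodule.exists_mem_ne_zero_of_ne_bot hWne
        obtain ⟨⟨x, hx, hxv⟩, _⟩ := hWn v hv hv0
        apply hxv
        unfold QuadraticMap.polar
        rw [hcon _ (W.add_mem hx hv), hcon _ hx, hcon _ hv]
        ring
      have hw0 : w ≠ 0 := by
        intro h
        rw [h] at hQw
        exact hQw hQ0
      have hDW : Submodule.span F {w} ≤ W := (Submodule.span_singleton_le_iff_mem w W).mpr hwW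
      have hDn : Nd Q (Submodule.span F {w}) := nd_span Q hQ h2 hQw
      obtain ⟨W2, hW2W, -, hW2n, hperpW, hsupW, hfrW⟩ :=
        hP F ι Q hQ (1 : Matrix ι ι F) (by intro v; rw [Matrix.one_mulVec]) (by simp) W
          (Submodule.span F {w}) hDW (inv_one W) (inv_one _) hWn hDn
      rw [finrank_span_singleton hw0] at hfrW
      have hU2 : 2 ≤ Module.finrank F U := by omega
      obtain ⟨u, huU, hQu⟩ := hU F ι Q hQ h2 U hUn hU2 (Q w) hQw
      have hQu' : Q u ≠ 0 := by rw [hQu]; exact hQw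
      have hu0 : u ≠ 0 := by
        intro h
        rw [h] at hQu'
        exact hQu' hQ0
      have hD'U : Submodule.span F {u} ≤ U := (Submodule.span_singleton_le_iff_mem u U).mpr huU
      have hD'n : Nd Q (Submodule.span F {u}) := nd_span Q hQ h2 hQu'
      obtain ⟨U2, hU2U, -, hU2n, hperpU, hsupU, hfrU⟩ :=
        hP F ι Q hQ (1 : Matrix ι ι F) (by intro v; rw [Matrix.one_mulVec]) (by simp) U
          (Submodule.span F {u}) hD'U (inv_one U) (inv_one _) hUn hD'n
      rw [finrank_span_singleton hu0] at hfrU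
      obtain ⟨W2', hW2'U2, hW2'n, hiso2⟩ := ih U2 W2 hU2n hW2n (by omega) (by omega)
      have hperp' : Perp Q (Submodule.span F {u}) W2' :=
        fun a ha b hb => hperpU a ha b (hW2'U2 hb)
      refine ⟨Submodule.span F {u} ⊔ W2', sup_le hD'U (hW2'U2.trans hU2U),
        nd_sup Q hQ hD'n hW2'n hperp', ?_⟩
      have := isometric_sup Q hperp' hperpW (disjoint_of_perp Q hD'n hperp')
        (disjoint_of_perp Q hDn hperpW) (isometric_span Q hQ hu0 hw0 hQu) hiso2
      rwa [hsupW] at this
  intro U W hUn hWn hle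
  exact main _ U W hUn hWn rfl hle

end Cfsg.Agent.Lib.Helper25.OPar
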